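import Mathlib
import Cfsg.Agent.PLocal.FF7

/-! Failure of the Thompson factorization and coprime operator groups. -/

namespace Cfsg.Agent.PLocal

open Subgroup Cfsg LocalEven
open scoped commutatorElement MatrixGroups

variable {G : Type*} [Group G] {p : ℕ}

theorem omegaClosure_characteristic [Finite G] [Fact p.Prime] :
    (Transfer.omegaClosure p G).Characteristic := by
  refine characteristic_iff_map_le.2 fun φ => ?_
  rw [Transfer.omegaClosure, Subgroup.map_iSup]
  refine iSup_le fun S => ?_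
  rw [Transfer.map_omegaOneCenter (by
    rw [(MonoidHom.ker_eq_bot_iff _).2 φ.injective, inf_bot_eq])]
  exact Transfer.omegaOneCenter_le_omegaClosure (S.mapSurjective (f := φ.toMonoidHom) φ.surjective)

variable {K X : Subgroup G}

/-- The action of `X` on `K`. -/
def opAut (hXK : X ≤ normalizer (K : Set G)) : X →* MulAut K :=
  K.normalizerMonoidHom.comp (inclusion hXK)

theorem coe_opAut (hXK : X ≤ normalizer (K : Set G)) (x : X) (k : K) :
    (opAut hXK x k : G) = x * k * (x : G)⁻¹ := rfl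

/-- The action of `X` on a characteristic subgroup `V` of `K`, in the holomorph of `V`. -/
def holOp (hXK : X ≤ normalizer (K : Set G)) (V : Subgroup K) [V.Characteristic] : X →* Hol V :=
  SemidirectProduct.inr.comp ((MulAut.characteristic V).comp (opAut hXK))

variable (hXK : X ≤ normalizer (K : Set G)) {V : Subgroup K} [V.Characteristic]

theorem holOp_conj (x : X) (k : K) :
    holOp hXK V x * holRep V k * (holOp hXK V x)⁻¹ = holRep V (opAut hXK x k) := by
  change SemidirectProduct.inr _ * SemidirectProduct.inr _ * (SemidirectProduct.inr _)⁻¹ =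
    SemidirectProduct.inr _
  rw [← map_inv, ← map_mul, ← map_mul]
  congr 1
  rw [mul_inv_eq_iff_eq_mul]
  ext v
  change (x : G) * ((k : G) * ((v : K) : G) * (k : G)⁻¹) * (x : G)⁻¹ =
    ((x : G) * (k : G) * (x : G)⁻¹) * ((x : G) * ((v : K) : G) * (x : G)⁻¹) *
      ((x : G) * (k : G) * (x : G)⁻¹)⁻¹
  group

theorem mem_centralizer_of_inl {v : V}
    (h : SemidirectProduct.inl v ∈ centralizer ((holOp hXK V).range : Set (Hol V))) :
    ((v : K) : G) ∈ centralizer (X : Set G) := by
  refine mem_centralizer_iff.2 fun x hx => ?_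
  have := (hol_comm_iff _ _).1 (mem_centralizer_iff.1 h _ ⟨⟨x, hx⟩, rfl⟩)
  exact mul_inv_eq_iff_eq_mul.1 (congrArg (fun y : V => ((y : K) : G)) this)

theorem holOp_le_normalizer (L : Subgroup K) [hL : L.Characteristic] :
    (holOp hXK V).range ≤ normalizer ((L.map (holRep V) : Subgroup (Hol V)) : Set (Hol V)) := by
  refine le_normalizer_of_cj_le ?_
  rintro _ ⟨x, rfl⟩
  refine cj_le_iff'.2 ?_
  rintro _ ⟨k, hk, rfl⟩
  rw [holOp_conj]
  exact ⟨_, characteristic_iff_le_comap.1 hL (opAut hXK x) hk, rfl⟩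

theorem holRep_mem_centralizer_holOp {k : K} (hk : (k : G) ∈ centralizer (X : Set G)) :
    holRep V k ∈ centralizer ((holOp hXK V).range : Set (Hol V)) := by
  refine mem_centralizer_iff.2 ?_
  rintro _ ⟨x, rfl⟩
  rw [← mul_inv_eq_iff_eq_mul, holOp_conj]
  congr 1
  apply Subtype.ext
  rw [coe_opAut, mem_centralizer_iff.1 hk x x.2, mul_inv_cancel_right]

variable [Finite G]

theorem exists_lift_fixed (hc : (Nat.card X).Coprime (Nat.card K)) (hs : Group.IsSolvable X)
    {k : K} (hk : holRep V k ∈ centralizer ((holOp hXK V).range : Set (Hol V))) :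
    ∃ c : K, (c : G) ∈ centralizer (X : Set G) ∧ holRep V c = holRep V k := by
  let N : Subgroup G := (centralizer (V : Set K)).map K.subtype
  have hXN : X ≤ normalizer (N : Set G) := Core.le_normalizer_map_subtype hXK _
  have hKN : K ≤ normalizer (N : Set G) := Core.le_normalizer_map_subtype_of_normal K _
  have hNK : N ≤ K := map_subtype_le _
  obtain ⟨n, hn, c, hc', e⟩ := Core.exists_eq_mul_centralizer X (K ⊓ centMod X N) N
    (le_inf hNK (le_centMod.2 ⟨le_normalizer, commutator_le_right_of_le_normalizer hXN⟩)) hXN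
    (Core.coprime_of_le_right hc hNK) (Or.inl hs)
    (by rw [commutator_comm]; exact (le_centMod.1 inf_le_right).2) k ⟨k.2, mem_centMod.2
      ⟨hKN k.2, fun x hx => ⟨opAut hXK ⟨x, hx⟩ k * k⁻¹, by
        rw [SetLike.mem_coe, ← holRep_eq_one_iff, map_mul, ← holOp_conj, map_inv,
          mem_centralizer_iff.1 hk _ ⟨⟨x, hx⟩, rfl⟩]
        group, rfl⟩⟩⟩
  obtain ⟨n, hn', rfl⟩ := hn
  refine ⟨⟨c, hc'.1.1⟩, hc'.2, ?_⟩
  have : k = n * ⟨c, hc'.1.1⟩ := Subtype.ext e
  rw [this, map_mul, holRep_eq_one_iff.2 hn', one_mul]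

theorem coprime_holOp (hc : (Nat.card X).Coprime (Nat.card K)) (L : Subgroup K) :
    (Nat.card (holOp hXK V).range).Coprime (Nat.card (L.map (holRep V))) :=
  (hc.coprime_dvd_left (card_range_dvd _)).coprime_dvd_right
    ((Core.card_map_dvd _ _).trans L.card_subgroup_dvd_card)

variable [hp : Fact p.Prime]

include hXK in
theorem thompson_le_of_fixed_le (hc : (Nat.card X).Coprime (Nat.card K))
    (hsX : Group.IsSolvable X) (hs : IsPSolvable p K) (hV : IsElementaryAbelian p V)
    (hO : pCore p (K ⧸ centralizer (V : Set K)) = ⊥) (S : Sylow p K) {M : Subgroup K}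
    (h1 : (S : Subgroup K) ≤ M) (h2 : centralizer (V : Set K) ≤ M)
    (h3 : (centralizer (X : Set G)).subgroupOf K ≤ M) : thompsonSubgroup p K ≤ M := by
  have h := ffSetup_holRep hV hO (thompsonSubgroup p K) (Core.IsPSolvable.subgroup hs _)
  have hH := holOp_le_normalizer hXK (V := V) (thompsonSubgroup p K)
  have hT := ((isSylowIn_top S).map (holRep V)).inf_of_le_normalizer
    (map_mono (le_top (a := thompsonSubgroup p K)))
    (Core.map_le_normalizer_map le_normalizer_of_normal _)
  have := h.le_of_fixed_le (tvGen_holRep hV h) le_normalizer_of_normal hH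
    (Core.le_normalizer_map_subtype hH _) (coprime_holOp hXK hc _) hT
    (inf_le_left.trans (map_mono h1)) (by
      rintro _ ⟨⟨k, -, rfl⟩, hk⟩
      obtain ⟨c, hc1, hc2⟩ := exists_lift_fixed hXK hc hsX hk
      exact ⟨c, h3 hc1, hc2⟩)
  rw [map_le_iff_le_comap, comap_map_eq, ker_holRep, sup_eq_left.2 h2] at this
  exact this

include hXK in
theorem exists_fixed_SL2 (hc : (Nat.card X).Coprime (Nat.card K))
    (hsX : Group.IsSolvable X) (hs : IsPSolvable p K) (hV : IsElementaryAbelian p V)
    (hO : pCore p (K ⧸ centralizer (V : Set K)) = ⊥)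
    (hJ : ¬ thompsonSubgroup p K ≤ centralizer (V : Set K)) :
    ∃ W D : Subgroup G, W ≤ K ⊓ centralizer (X : Set G) ∧ D ≤ K ⊓ centralizer (X : Set G) ∧
      IsElementaryAbelian p W ∧ Nat.card W = p ^ 2 ∧ D ≤ normalizer (W : Set G) ∧
      ∃ _ : ((centralizer (W : Set G)).subgroupOf D).Normal,
        Nonempty ((D ⧸ (centralizer (W : Set G)).subgroupOf D) ≃* SL(2, ZMod p)) := by
  have h := ffSetup_holRep hV hO (thompsonSubgroup p K) (Core.IsPSolvable.subgroup hs _)
  have hH := holOp_le_normalizer hXK (V := V) (thompsonSubgroup p K)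
  obtain ⟨W', hW1, hW2, hW3, hW4⟩ := h.exists_fixed_plane (tvGen_holRep hV h)
    (fun e => hJ (by rwa [Subgroup.map_eq_bot_iff, ker_holRep] at e)) le_normalizer_of_normal hH
    (Core.le_normalizer_map_subtype hH _) (coprime_holOp hXK hc _)
  let W₀ : Subgroup V := W'.comap SemidirectProduct.inl
  have hW₀ : W₀.map SemidirectProduct.inl = W' := map_comap_eq_self (hW1.trans inf_le_left)
  let ι : V →* G := K.subtype.comp V.subtype
  have hι : Function.Injective ι := K.subtype_injective.comp V.subtype_injective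
  let D₀ : Subgroup K := ((thompsonSubgroup p K).map (holRep V)).comap (holRep V) ⊓
    (centralizer (X : Set G)).subgroupOf K
  have hD₀ : D₀.map (holRep V) = (thompsonSubgroup p K).map (holRep V) ⊓
      centralizer ((holOp hXK V).range : Set (Hol V)) := by
    refine le_antisymm ?_ ?_
    · rintro _ ⟨k, hk, rfl⟩
      exact ⟨hk.1, holRep_mem_centralizer_holOp hXK hk.2⟩
    · rintro _ ⟨⟨k, hk1, rfl⟩, hk⟩
      obtain ⟨c, hc1, hc2⟩ := exists_lift_fixed hXK hc hsX hk
      exact ⟨c, ⟨⟨k, hk1, hc2.symm⟩, hc1⟩, hc2⟩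
  have hea : IsElementaryAbelian p (W₀.map ι) := by
    refine elemAb_map (elemAb_of_le ?_ le_top) ι
    rw [← subgroupOf_self]
    exact elemAb_subgroupOf hV V
  have hcard : Nat.card (W₀.map ι) = p ^ 2 := by
    rw [card_map_of_injective hι, ← hW2, ← hW₀,
      card_map_of_injective SemidirectProduct.inl_injective]
  have hDle : (pElementClosure p D₀).map K.subtype ≤ K ⊓ centralizer (X : Set G) := by
    rintro _ ⟨k, hk, rfl⟩
    exact ⟨k.2, (pElementClosure_le _ hk).2⟩
  have hDn : (pElementClosure p D₀).map K.subtype ≤ normalizer ((W₀.map ι : Subgroup G) : Set G) := by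
    refine le_normalizer_of_cj_le ?_
    rintro _ ⟨k, hk, rfl⟩
    refine cj_le_iff'.2 ?_
    rintro _ ⟨v, hv, rfl⟩
    have h1 : holRep V k ∈ normalizer (W' : Set (Hol V)) :=
      hW3 (hD₀ ▸ mem_map_of_mem _ (pElementClosure_le _ hk))
    have h2 := conj_mem_of_mem_normalizer h1 hv
    rw [holRep_conj] at h2
    exact ⟨_, h2, rfl⟩
  refine ⟨W₀.map ι, (pElementClosure p D₀).map K.subtype, ?_, hDle, hea, hcard, hDn,
    nonempty_quotient_equiv_SL2 hea hcard hDn ?_ fun hall => hW4 ?_⟩
  · rintro _ ⟨v, hv, rfl⟩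
    exact ⟨(v : K).2, mem_centralizer_of_inl hXK (hW1 hv).2⟩
  · rw [← map_pElementClosure_of_injective _ K.subtype_injective, pElementClosure_idem]
  · rw [← hD₀, ← map_pElementClosure]
    rintro _ ⟨k, hk, rfl⟩
    obtain ⟨j, hj⟩ := hall k ⟨k, hk, rfl⟩
    refine ⟨j, mem_centralizer_iff.2 fun w hw => ?_⟩
    rw [← hW₀] at hw
    obtain ⟨v, hv, rfl⟩ := hw
    rw [← map_pow]
    refine ((holRep_comm_iff _ v).2 (Subtype.ext ?_)).symm
    exact (mem_centralizer_iff.1 hj _ ⟨v, hv, rfl⟩).symm

end Cfsg.Agent.PLocal
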