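import Mathlib
import Cfsg.Agent.PLocal.JC5
import Cfsg.Agent.Transfer.Abelian
import Cfsg.Agent.Inv.Dihedral

/-! The final analysis of the amalgam of two `J(T)`-components. -/

set_option autoImplicit false

namespace Cfsg.Agent.PLocal

open Subgroup LocalEven Transfer
open scoped commutatorElement

variable {G : Type*} [Group G] [Finite G] {K K' X Y H A B P Q N S T L L' J U M R : Subgroup G}
  {a b g s t w x y z : G}

namespace Pair

theorem Z_eq (h : Pair T K L K' L') :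
    omegaOneCenter 2 T = omegaOneCenter 2 (thompsonSubgroupOf 2 T) :=
  le_antisymm (Z_le_Z T) fun x hx => mem_omegaOneCenter.2
    ⟨thompsonSubgroupOf_le T (LocalEven.omegaOneCenter_le _ hx), fun t ht =>
      (h.small.cent h.h1.toJC (norm_thompson T ht) (h.h1.tn ht) x hx).symm,
      (mem_omegaOneCenter.1 hx).2.2⟩

theorem Z_le' (h : Pair T K L K' L') : omegaOneCenter 2 T ≤ pCoreOf 2 (K ⊔ T) :=
  fun _ hx => h.Z_le ⟨(mem_omegaOneCenter.1 hx).1, (mem_omegaOneCenter.1 hx).2.1⟩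

theorem card_Q (h : Pair T K L K' L') :
    Nat.card (pCoreOf 2 (K ⊔ T)) ≤ 2 * Nat.card (omegaOneCenter 2 (thompsonSubgroupOf 2 T)) :=
  (card_le_two_mul fun _ hx _ hy x1 y1 => h.h2.mul_mem (h.h1.sy.pCoreOf_le hy)
    (h.h1.sy.pCoreOf_le hx) y1 x1).trans (Nat.mul_le_mul_left 2 (card_le_of_le fun _ hx =>
      Z_le_Z T (h.inf_le_Z hx.2 hx.1)))

theorem card_Q_le (h : Pair T K L K' L') : Nat.card (pCoreOf 2 (K ⊔ T)) ≤ 8 :=
  h.card_Q.trans (Nat.mul_le_mul_left 2 (h.small.card_le h.h1.toJC).1)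

theorem W_le (h : Pair T K L K' L') : wOf K ≤ pCoreOf 2 (K ⊔ T) :=
  (wOf_le_core K).trans (h.h1.jo'.core_le h.h1.toJC le_sup_left)

theorem cases (h : Pair T K L K' L') (hS : IsSylowIn 2 S ⊤) (hTS : T ≤ S)
    (hg : IsSylowIn 2 T ⊤ ∨ ∃ g ∈ normalizer (T : Set G), g ∉ L) {Z : Subgroup G}
    (hZ : Z = omegaOneCenter 2 (thompsonSubgroupOf 2 T)) :
    (omegaOneCenter 2 S = Z ∧ Nat.card Z = 2) ∨ (omegaOneCenter 2 S = Z ∧ Nat.card Z = 4 ∧ T = S) ∨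
      (omegaOneCenter 2 T = Z ∧ Nat.card Z = 4 ∧
        (L ⊓ centralizer (Z : Set G)).relIndex (normalizer (Z : Set G)) = 2) := by
  have : Fact (Nat.Prime 2) := ⟨Nat.prime_two⟩
  have l1 : omegaOneCenter 2 S ≤ omegaOneCenter 2 T := omegaOneCenter_le_of_le hTS
    (((LocalEven.omegaOneCenter_le_centralizer S).trans (centralizer_le
      (h.h1.jo.syl.pCoreOf_le.trans hTS))).trans (h.h1.jo.cent.trans h.h1.jo.syl.pCoreOf_le))
  rw [h.Z_eq, ← hZ] at l1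
  have n1 := LocalEven.omegaOneCenter_ne_bot hS.pgrp fun e => h.h1.core_ne
    (le_bot_iff.1 (e ▸ h.h1.sy.pCoreOf_le.trans hTS))
  have c0 := (one_lt_card_iff_ne_bot _).2 n1
  have c1 := h.small.card_le h.h1.toJC
  have ea := ea_omegaOneCenter (p := 2) (thompsonSubgroupOf 2 T)
  rw [← hZ] at c1 ea
  by_cases e : Nat.card Z ≤ 2
  · exact Or.inl ⟨eq_of_le_of_card_le l1 (e.trans c0), le_antisymm e (c0.trans_le (card_le_of_le l1))⟩
  obtain ⟨z, z1, z2, z3⟩ := c1.2.resolve_left e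
  have c3 : Nat.card Z = 4 := by
    obtain ⟨n, hn⟩ := IsPGroup.iff_card.1 (ea_isPGroup ea)
    have h4 := c1.1
    have h5 := Nat.two_pow_pos n
    rcases n with _ | _ | _ | n <;> omega
  by_cases e : T = S
  · exact Or.inr (Or.inl ⟨e ▸ h.Z_eq.trans hZ.symm, c3, e⟩)
  refine Or.inr (Or.inr ⟨h.Z_eq.trans hZ.symm, c3, ?_⟩)
  obtain ⟨g, g1, g2⟩ := hg.resolve_left fun e' => e (e'.max S le_top hS.pgrp hTS).symm
  have c2 := h.h1.cent_le (hZ ▸ z1) z2 z3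
  obtain ⟨u, u1, u2⟩ := (bot_or_exists_ne_one _).resolve_left n1
  have k1 : ∀ x, x * z * x⁻¹ ∉ zpowers u := fun x hx => e (eq_of_le_of_card_le hTS (card_cj x⁻¹ S ▸
    h.h1.jo.syl.card_le (le_trans (cj_le_iff.2 ?_) c2) (isPGroup_cj _ hS.pgrp)))
  swap
  · rw [inv_inv, cj_centralizer_singleton]
    exact fun s hs => mem_centralizer_singleton_iff.2
      ((mem_omegaOneCenter.1 (zpowers_le.2 u1 hx)).2.1 s hs)
  have zz : z * z = 1 := by rw [← pow_two, ea.2 z z1]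
  have k0 : ∀ y ∈ Z, y ∉ zpowers u → y = z ∨ y = u * z := fun y y1 y2 =>
    (mem_zpowers_two (Z_sq u1) (mul_mem_of_card_le (zpowers_le.2 (l1 u1))
      (by rw [card_zpowers_two (Z_sq u1) u2, c3]) y1 z1 y2 (by simpa using k1 1))).imp
      (fun e => mul_right_cancel (e.trans zz.symm)) fun e => by rw [← e, mul_assoc, zz, mul_one]
  have k2 : ∀ x ∈ normalizer (Z : Set G), x * z * x⁻¹ = z ∨ x * z * x⁻¹ = u * z := fun x hx =>
    k0 _ (conj_mem_of_mem_normalizer hx z1) (k1 x)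
  have g3 : g ∈ normalizer (Z : Set G) :=
    hZ ▸ h.Z_eq ▸ LocalEven.normalizer_le_normalizer_omegaOneCenter T g1
  have g4 := (k2 g g3).resolve_left fun e => g2 (mem_of_conj_eq c2 (one_mem _) (by simpa using e))
  have k3 : ∀ x ∈ normalizer (Z : Set G), x * u * x⁻¹ = u := fun x hx => by
    have e1 : x * g * z * (x * g)⁻¹ = x * u * x⁻¹ * (x * z * x⁻¹) := by
      calc _ = x * (g * z * g⁻¹) * x⁻¹ := by group
        _ = _ := by rw [g4]; group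
    have e2 : x * u * x⁻¹ ≠ 1 := fun e => u2 (conj_eq_one_iff.1 e)
    rcases k2 x hx with e3 | e3 <;> rcases k2 _ (mul_mem hx g3) with e4 | e4 <;> rw [e1, e3] at e4
    · exact absurd (mul_eq_right.1 e4) e2
    · exact mul_right_cancel e4
    · rw [← mul_assoc, mul_eq_right] at e4
      exact mul_right_cancel (e4.trans (Z_sq u1).symm)
    · exact absurd (mul_eq_right.1 e4) e2
  have k4 : ∀ x ∈ normalizer (Z : Set G), x * z * x⁻¹ = z → x ∈ L ⊓ centralizer (Z : Set G) :=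
    fun x x1 x2 => ⟨mem_of_conj_eq c2 (one_mem _) (by simpa using x2), fun y hy => by
      refine (mul_inv_eq_iff_eq_mul.1 ?_).symm
      by_cases e : y ∈ zpowers u
      · rcases mem_zpowers_two (Z_sq u1) e with rfl | rfl
        exacts [by simp, k3 x x1]
      rcases k0 y hy e with rfl | rfl
      · exact x2
      · nth_rw 2 [← k3 x x1, ← x2]; group⟩
  have c4 := card_eq_two_mul g3 (fun e : g ∈ L ⊓ centralizer (Z : Set G) => g2 e.1) fun y y1 y2 =>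
    k4 _ (mul_mem y1 g3) (by
      calc _ = y * (g * z * g⁻¹) * y⁻¹ := by group
        _ = y * u * y⁻¹ * (y * z * y⁻¹) := by rw [g4]; group
        _ = z := by
          rw [k3 y y1, (k2 y y1).resolve_left fun e => y2 (k4 y y1 e), ← mul_assoc, Z_sq u1, one_mul])
  rw [← card_inf_mul_relIndex (L ⊓ centralizer (Z : Set G)), mul_comm 2] at c4
  exact Nat.eq_of_mul_eq_mul_left Nat.card_pos c4

theorem L_eq (h : Pair T K L K' L') : L = K ⊔ T := by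
  have : Fact (Nat.Prime 2) := ⟨Nat.prime_two⟩
  have j := h.h1.jo
  have l1 := pCoreOf_le_of_le h.h1.le_L (j.syl.pCoreOf_le.trans le_sup_right)
  have e1 : pCoreOf 2 L = pCoreOf 2 (K ⊔ T) :=
    le_antisymm l1 (((ea_le_centralizer h.ea).trans (centralizer_le l1)).trans j.cent)
  obtain ⟨w, w1, w2, w3⟩ := h.h1.exists_w
  have n1 : L ≤ normalizer (wOf K : Set G) := fun g hg => norm_wOf K (cj_eq_self_iff.1
    (j.same_of_W (j.cj_jc h.h1.toJC h.h1.kL hg) (cj_le_of_mem hg h.h1.kL) h.h1.toJC h.h1.kL fun e => by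
      have h1 := Core.card_mul_card_le (cj_wOf g K ▸ cj_le_of_mem_normalizer
        (e1 ▸ le_normalizer_pCoreOf L hg) h.W_le) h.W_le
      have h2 := h.card_Q_le
      rw [e, ← cj_wOf, card_cj, h.h1.card, card_bot] at h1
      omega))
  have p1 : IsPGroup 2 ↥(L ⊓ centralizer {w}) := isPGroup_iff_mem.2 fun y hy => ⟨3, by
    have h1 := sq_mem_cent (zpowers_le.2 w1) (by rw [card_zpowers_two (wOf_sq w1) w3, h.h1.card])
      (fun n hn => wOf_sq (zpowers_le.2 w1 hn)) (n1 hy.1) (centralizer_zpowers w ▸ hy.2)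
    have h2 := sq_mem_cent h.W_le (by rw [h.h1.card]; exact h.card_Q_le) (fun n => wOf_sq)
      (e1 ▸ le_normalizer_pCoreOf L (mul_mem hy.1 hy.1)) h1
    rw [← h.sq (h.h1.jo'.cent h2)]
    norm_num [pow_succ, mul_assoc]⟩
  have e2 := j.syl.max _ inf_le_left p1 (le_inf j.syl.le fun t ht =>
    mem_centralizer_singleton_iff.2 ((mem_omegaOneCenter.1 w2).2.1 t ht))
  refine le_antisymm (fun g hg => ?_) h.h1.le_L
  obtain ⟨k, k1, k2⟩ := h.h1.trans h.h1.card.le w1 w3 (conj_mem_of_mem_normalizer (n1 hg) w1)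
    fun e => w3 (conj_eq_one_iff.1 e)
  refine (mul_mem_cancel_left (mem_sup_left (inv_mem k1))).1 (mem_sup_right (e2.le
    ⟨L.mul_mem (L.inv_mem (h.h1.kL k1)) hg, mem_centralizer_singleton_iff.2 ?_⟩))
  calc k⁻¹ * g * w = k⁻¹ * (g * w * g⁻¹) * g := by group
    _ = _ := by rw [← k2]; group

theorem struct (h : Pair T K L K' L') :
    (Nonempty (L ≃* Equiv.Perm (Fin 4)) ∧ Nonempty (L' ≃* Equiv.Perm (Fin 4))) ∨
      (Nonempty (L ≃* Equiv.Perm (Fin 4) × Multiplicative (ZMod 2)) ∧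
        Nonempty (L' ≃* Equiv.Perm (Fin 4) × Multiplicative (ZMod 2))) := by
  rw [h.L_eq, h.symm.L_eq]
  exact h.am3.struct h.charP h.symm.charP h.not_cent (inf_comm (K' ⊔ T) _ ▸ h.symm.not_cent)

theorem exists_a (h : Pair T K L K' L') : ∃ a ∈ wOf K, a ∉ pCoreOf 2 (K' ⊔ T) := by
  by_contra! H
  have := h.h1.split.2.1
  rw [inf_eq_right.2 fun x hx => Z_le_Z T (h.inf_le_Z (h.W_le hx) (H x hx)), h.h1.card] at this
  omega

theorem W_le_T (h : Pair T K L K' L') : wOf K ≤ T := h.W_le.trans h.h1.sy.pCoreOf_le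

theorem D_le (h : Pair T K L K' L') : wOf K ⊔ wOf K' ≤ T := sup_le h.W_le_T h.symm.W_le_T

theorem comm_ab (h : Pair T K L K' L') (a1 : a ∈ wOf K) (a2 : a ∉ pCoreOf 2 (K' ⊔ T))
    (b1 : b ∈ wOf K') (b2 : b ∉ pCoreOf 2 (K ⊔ T)) : ⁅a, b⁆ ∈ wOf K ⊓ wOf K' ∧ ⁅a, b⁆ ≠ 1 := by
  refine ⟨⟨?_, (wOf K').mul_mem (conj_mem_of_mem_normalizer (norm_wOf K' (h.h2.tn (h.W_le_T a1))) b1)
    ((wOf K').inv_mem b1)⟩, fun e => a2 (h.symm.Z_le ⟨h.W_le_T a1, h.symm.cent_of (h.symm.W_le b1) b2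
    (ea_le_centralizer h.ea (h.W_le a1)) (commutatorElement_eq_one_iff_mul_comm.1 e).symm⟩)⟩
  simpa [commutatorElement_def, mul_assoc] using mul_mem a1 (conj_mem_of_mem_normalizer
    (norm_wOf K (h.h1.tn (h.symm.W_le_T b1))) (inv_mem a1))

theorem card_WW (h : Pair T K L K' L') : Nat.card ↥(wOf K ⊓ wOf K') = 2 := by
  obtain ⟨a, a1, a2⟩ := h.exists_a
  obtain ⟨b, b1, b2⟩ := h.symm.exists_a
  obtain ⟨c1, c2⟩ := h.comm_ab a1 a2 b1 b2
  refine le_antisymm (h.h1.split.2.1 ▸ card_le_of_le fun x hx => ⟨Z_le_Z T (h.inf_le_Z (h.W_le hx.1)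
    (h.symm.W_le hx.2)), hx.1⟩) ((one_lt_card_iff_ne_bot _).2 fun e => c2 (mem_bot.1 (e.le c1)))

theorem card_D (h : Pair T K L K' L') : Nat.card ↥(wOf K ⊔ wOf K') = 8 := by
  have := Core.card_sup_mul_card_inf (h.symm.W_le_T.trans (h.h1.tn.trans (norm_wOf K)))
  rw [h.card_WW, h.h1.card, h.h2.card] at this
  omega

theorem inf_D (h : Pair T K L K' L') : pCoreOf 2 (K ⊔ T) ⊓ (wOf K ⊔ wOf K') = wOf K := by
  obtain ⟨b, b1, b2⟩ := h.symm.exists_a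
  have := card_eq_two_mul (mem_sup_right b1 : b ∈ wOf K ⊔ wOf K') b2 fun y y1 y2 =>
    h.h1.mul_mem (h.D_le y1) (h.symm.W_le_T b1) y2 b2
  rw [h.card_D] at this
  exact (eq_of_le_of_card_le (le_inf h.W_le le_sup_left) (by rw [h.h1.card]; omega)).symm

theorem mem_WW (h : Pair T K L K' L') (x1 : x ∈ omegaOneCenter 2 T) (x2 : x ∈ wOf K ⊔ wOf K') :
    x ∈ wOf K ⊓ wOf K' :=
  ⟨h.inf_D.le ⟨h.Z_le' x1, x2⟩, h.symm.inf_D.le ⟨h.symm.Z_le' x1, sup_comm (wOf K) _ ▸ x2⟩⟩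

theorem norm_Q (h : Pair T K L K' L') : normalizer (pCoreOf 2 (K ⊔ T) : Set G) = K ⊔ T :=
  le_antisymm ((h.h1.uniq _ (local_core h.h1.core_ne) ((sup_le_sup_left (thompsonSubgroupOf_le T)
    K).trans (le_normalizer_pCoreOf _))).trans h.L_eq.le) (le_normalizer_pCoreOf _)

theorem swapK (h : Pair T K L K' L') (hP : IsPGroup 2 P) (h1 : T ≤ P) (x1 : x ∈ P)
    (x2 : x ∈ normalizer (T : Set G)) (x3 : x ∉ T) : cj x K = K' := by
  have e := congrArg (fun X : Subgroup G => pResOf 2 (normalizer (X : Set G))) (h.swap hP h1 x1 x2 x3)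
  simp only [← cj_normalizer, h.norm_Q, h.symm.norm_Q] at e
  rwa [← cj_pResOf, pResOf_sup_eq h.h1.sy.pgrp h.h1.tn, pResOf_sup_eq h.h1.sy.pgrp h.h2.tn,
    h.h1.res, h.h2.res] at e

section z

variable (h : Pair T K L K' L') (z1 : z ∈ omegaOneCenter 2 T) (z2 : z ∈ centralizer (K : Set G))
  (z3 : z ≠ 1)
include h z1 z2 z3

theorem z_not_mem : z ∉ wOf K ⊔ wOf K' := fun e => by
  obtain ⟨t, t1, t2, -⟩ := h.h1.exists_t
  exact z3 (h.h1.fpf t1 t2 (h.mem_WW z1 e).1 (z2 t t1))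

theorem mul_z (s1 : s ∈ T) (s2 : s ∉ wOf K ⊔ wOf K') : s * z ∈ wOf K ⊔ wOf K' :=
  mul_mem_of_card_le h.D_le (by have := h.card_Q_le; rw [h.card_D, h.h1.card_T]; omega) s1
    (LocalEven.omegaOneCenter_le T z1) s2 (h.z_not_mem z1 z2 z3)

theorem card_T : Nat.card T = 16 := by
  rw [card_eq_two_mul (LocalEven.omegaOneCenter_le T z1) (h.z_not_mem z1 z2 z3) fun _ =>
    h.mul_z z1 z2 z3, inf_eq_left.2 h.D_le, h.card_D]

theorem not_conj (g : G) : g * z * g⁻¹ ∉ wOf K ⊔ wOf K' := fun e => by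
  have : Fact (Nat.Prime 2) := ⟨Nat.prime_two⟩
  have zT := (mem_omegaOneCenter.1 z1).2.1
  have dec : ∀ s ∈ T, ∃ d ∈ wOf K ⊔ wOf K', ∀ x ∈ T, ⁅s, x⁆ = ⁅d, x⁆ := fun s hs => by
    by_cases e : s ∈ wOf K ⊔ wOf K'
    · exact ⟨s, e, fun _ _ => rfl⟩
    refine ⟨_, h.mul_z z1 z2 z3 hs e, fun x hx => ?_⟩
    rw [commutatorElement_def, commutatorElement_def, mul_assoc s z, ← zT x hx]; group
  obtain ⟨a, a1, a2⟩ := h.exists_a
  obtain ⟨b, b1, b2⟩ := h.symm.exists_a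
  obtain ⟨c1, c2⟩ := h.comm_ab a1 a2 b1 b2
  have g1 : g * z * g⁻¹ ≠ 1 := fun e => z3 (conj_eq_one_iff.1 e)
  obtain ⟨k, hk⟩ : ∃ k, k * ⁅a, b⁆ * k⁻¹ = g * z * g⁻¹ := by
    rcases h.mem_or (h.D_le e) (by rw [conj_mul, Z_sq z1]; simp) with e1 | e1
    · exact (h.h1.trans h.h1.card.le c1.1 c2 (h.inf_D.le ⟨e1, e⟩) g1).imp fun _ h => h.2
    · exact (h.h2.trans h.h2.card.le c1.2 c2 (h.symm.inf_D.le ⟨e1, sup_comm (wOf K) _ ▸ e⟩) g1).imp
        fun _ h => h.2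
  replace hk : g⁻¹ * k * ⁅a, b⁆ * (g⁻¹ * k)⁻¹ = z := by
    calc _ = g⁻¹ * (k * ⁅a, b⁆ * k⁻¹) * g := by group
      _ = _ := by rw [hk]; group
  obtain ⟨y, y1, y2⟩ := h.h1.jo.syl.exists_cj_le (isPGroup_cj (g⁻¹ * k) h.h1.sy.pgrp) (le_trans (by
    rw [← hk, ← cj_centralizer_singleton]
    exact cj_mono _ fun s hs => mem_centralizer_singleton_iff.2 ((mem_omegaOneCenter.1
      (h.inf_le_Z (h.W_le c1.1) (h.symm.W_le c1.2))).2.1 s hs))
    (h.h1.cent_le (Z_le_Z T z1) z2 z3))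
  rw [cj_cj] at y2
  have y3 : y * z = z * y := mem_centralizer_singleton_iff.1 ((h.L_eq.le.trans (sup_le (fun k hk =>
    mem_centralizer_singleton_iff.2 (z2 k hk)) fun k hk =>
    mem_centralizer_singleton_iff.2 (zT k hk))) y1)
  obtain ⟨d, d1, d2⟩ := dec _ (y2 (conj_mem_cj (h.W_le_T a1)))
  obtain ⟨d', d3, d4⟩ := dec _ (y2 (conj_mem_cj (h.symm.W_le_T b1)))
  have e1 := d2 _ (y2 (conj_mem_cj (h.symm.W_le_T b1)))
  rw [← conjugate_commutatorElement, ← commutatorElement_inv _ d, d4 d (h.D_le d1)] at e1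
  refine h.z_not_mem z1 z2 z3 ?_
  convert e1 ▸ inv_mem (mul_mem (mul_mem (mul_mem d3 d1) (inv_mem d3)) (inv_mem d1)) using 1
  rw [← mul_inv_cancel_right z y, ← y3, ← hk]; group

variable (hP : IsPGroup 2 P) (h1 : T ≤ P) (y1 : y ∈ P) (y2 : y ∈ normalizer (T : Set G))
  (y3 : y ∉ T)
include hP h1 y1 y2 y3

theorem mem_D_of_fix (x1 : x ∈ omegaOneCenter 2 T) (x2 : y * x * y⁻¹ = x) : x ∈ wOf K ⊔ wOf K' := by
  have : Fact (Nat.Prime 2) := ⟨Nat.prime_two⟩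
  by_contra e
  have e1 := h.swapK hP h1 y1 y2 y3
  have e2 := h.symm.swapK hP h1 y1 y2 y3
  have a1 := le_centralizer_of_card_prime h.card_WW (hP.to_le (zpowers_le.2 y1)) (zpowers_le.2
    (cj_eq_self_iff.1 (by rw [cj_inf, cj_wOf, cj_wOf, e1, e2, inf_comm]))) (mem_zpowers y) _
    (h.mem_WW (mul_mem x1 z1) (h.mul_z z1 z2 z3 (LocalEven.omegaOneCenter_le T x1) e))
  have a2 : y * z * y⁻¹ = z := mul_left_cancel (a := x) (by
    calc _ = y * x * y⁻¹ * (y * z * y⁻¹) := by rw [x2]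
      _ = y * (x * z) * y⁻¹ := by group
      _ = _ := by rw [← a1]; group)
  refine h.not_le (le_trans ?_ (h.h1.cent_le (Z_le_Z T z1) z2 z3))
  rw [← e1, ← a2, ← cj_centralizer_singleton]
  exact cj_mono y fun k hk => mem_centralizer_singleton_iff.2 (z2 k hk)

theorem mem_D_of (s1 : s ∈ T) (hs : s = y * y ∨ (y * y = 1 ∧ y * s * y⁻¹ = s⁻¹)) :
    s ∈ wOf K ⊔ wOf K' := by
  have e1 := h.swap hP h1 y1 y2 y3
  have e2 := h.symm.swap hP h1 y1 y2 y3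
  have s2 : y * s * y⁻¹ = s ∨ y * s * y⁻¹ = s⁻¹ := hs.imp (fun e => by rw [e]; group) And.right
  have key : ∀ Q : Subgroup G, y * s * y⁻¹ ∈ Q → s ∈ Q := fun Q e =>
    s2.elim (· ▸ e) fun e' => inv_mem_iff.1 (e' ▸ e)
  by_cases s3 : s ∈ pCoreOf 2 (K ⊔ T)
  · exact h.mem_D_of_fix z1 z2 z3 hP h1 y1 y2 y3 (h.inf_le_Z s3 (key _ (e1 ▸ conj_mem_cj s3)))
      (s2.elim id fun e => e.trans (inv_eq_of_mul_eq_one_right (h.sq s3)))
  have s4 : s ∉ pCoreOf 2 (K' ⊔ T) := fun e => s3 (key _ (e2 ▸ conj_mem_cj e))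
  obtain ⟨a, a1, a2⟩ := h.exists_a
  have b1 : y * a * y⁻¹ ∈ wOf K' := by
    rw [← h.swapK hP h1 y1 y2 y3, ← cj_wOf]; exact conj_mem_cj a1
  have b2 : y * a * y⁻¹ ∉ pCoreOf 2 (K ⊔ T) := fun e => a2 (conj_mem_cj_iff.1 (e2 ▸ e))
  have c1 := h.h2.mul_mem s1 (h.W_le_T a1) s4 a2
  have c2 := h.inf_le_Z (h.h1.mul_mem (h.h2.sy.pCoreOf_le c1) (h.symm.W_le_T b1)
    (fun e => s3 ((mul_mem_cancel_right (h.W_le a1)).1 e)) b2) (mul_mem c1 (h.symm.W_le b1))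
  have c3 := (mem_omegaOneCenter.1 c2).2.1
  have aa := wOf_sq a1
  have bb := wOf_sq b1
  have c4 := Z_sq c2
  obtain ⟨b, hb⟩ : ∃ b, b = y * a * y⁻¹ := ⟨_, rfl⟩
  rw [← hb] at b1 b2 c2 c3 bb c4
  obtain ⟨c, hc⟩ : ∃ c, c = s * a * b := ⟨_, rfl⟩
  rw [← hc] at c2 c3 c4
  have e3 : s = c * b * a := by rw [hc, mul_assoc _ b b, bb, mul_one, mul_assoc, aa, mul_one]
  have e4 : y * s * y⁻¹ = y * c * y⁻¹ * (y * y * a * (y * y)⁻¹) * b := by rw [e3, hb]; group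
  have aT := h.W_le_T a1
  have bT := h.symm.W_le_T b1
  refine e3 ▸ mul_mem (mul_mem (h.mem_D_of_fix z1 z2 z3 hP h1 y1 y2 y3 c2 ?_) (mem_sup_right b1))
    (mem_sup_left a1)
  rcases hs with e | ⟨e, e'⟩
  · rw [← e, show y * s * y⁻¹ = s by rw [e]; group, e3] at e4
    refine mul_right_cancel (b := b * a) ?_
    rw [← mul_assoc c, e4]
    calc _ = y * c * y⁻¹ * (b * a * b⁻¹ * c * c⁻¹) * b := by group
      _ = _ := by rw [c3 _ (mul_mem (mul_mem bT aT) (inv_mem bT))]; group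
  · rw [e, e', e3] at e4
    refine mul_right_cancel (b := a * b) ?_
    rw [← c3 _ (mul_mem aT bT), ← inv_eq_of_mul_eq_one_right aa, ← inv_eq_of_mul_eq_one_right bb]
    nth_rw 2 [← inv_eq_of_mul_eq_one_right c4]
    calc _ = y * c * y⁻¹ * (1 * a⁻¹ * 1⁻¹) * b⁻¹ := by group
      _ = (c * b * a)⁻¹ := by
        rw [inv_eq_of_mul_eq_one_right aa, inv_eq_of_mul_eq_one_right bb, ← e4]
      _ = _ := by group

end z

section z

variable (h : Pair T K L K' L') (z1 : z ∈ omegaOneCenter 2 T) (z2 : z ∈ centralizer (K : Set G))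
  (z3 : z ≠ 1)
include h z1 z2 z3

theorem exists_U (hS : IsPGroup 2 S) (h1 : T ≤ S) :
    ∃ U : Subgroup G, U.relIndex S = 2 ∧ ∀ u ∈ U, u * u = 1 → u ∈ wOf K ⊔ wOf K' := by
  have : Fact (Nat.Prime 2) := ⟨Nat.prime_two⟩
  have cT := h.card_T z1 z2 z3
  rcases h1.lt_or_eq with h2 | rfl
  swap
  · have := card_mul_relIndex h.D_le
    rw [h.card_D, cT] at this
    exact ⟨wOf K ⊔ wOf K', by omega, fun u hu _ => hu⟩
  have m1 : ∀ y ∈ S ⊓ normalizer (T : Set G), ∀ x ∈ S ⊓ normalizer (T : Set G), y ∉ T → x ∉ T →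
      y * x ∈ T := fun y y1 x x1 y2 x2 => h.h1.mem_of_norm hS h1 (mul_mem y1.1 x1.1)
    (cj_eq_self_iff.1 (by
      rw [cj_mul, h.swap hS h1 x1.1 x1.2 x2, h.symm.swap hS h1 y1.1 y1.2 y2]))
  have m2 : ∀ B ≤ S ⊓ normalizer (T : Set G), IsElementaryAbelian 2 B → 8 ≤ Nat.card B → B ≤ T := by
    intro B b1 b2 b3 y hy
    by_contra y3
    have c1 := card_le_two_mul (H := B) (K := T) fun x hx y hy x1 y1 => m1 y (b1 hy) x (b1 hx) y1 x1
    have c2 : T ⊓ B ≤ wOf K ⊓ wOf K' := fun x hx => by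
      have e : y * x * y⁻¹ = x := by rw [ea_comm b2 hy hx.2, mul_inv_cancel_right]
      have x1 : x ∈ omegaOneCenter 2 T := (h.mem_or hx.1 (by rw [← pow_two, b2.2 x hx.2])).elim
        (fun e' => h.inf_le_Z e' (h.swap hS h1 (b1 hy).1 (b1 hy).2 y3 ▸ e ▸ conj_mem_cj e'))
        fun e' => h.inf_le_Z (h.symm.swap hS h1 (b1 hy).1 (b1 hy).2 y3 ▸ e ▸ conj_mem_cj e') e'
      exact h.mem_WW x1 (h.mem_D_of_fix z1 z2 z3 hS h1 (b1 hy).1 (b1 hy).2 y3 x1 e)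
    have := card_le_of_le c2
    rw [h.card_WW] at this
    omega
  have l1 := le_inf h1 (Subgroup.le_normalizer (H := T))
  have m3 : S ≤ normalizer (T : Set G) := by
    by_contra e
    obtain ⟨x, x1, x2, x3⟩ := exists_mem_normalizer_of_lt hS (inf_lt_left.2 e)
    have key : ∀ {K L K' L'}, Pair T K L K' L' → cj x (pCoreOf 2 (K ⊔ T)) ≤ T := fun h =>
      m2 _ (cj_le_of_mem_normalizer x2 (h.h1.sy.pCoreOf_le.trans l1)) (elemAb_cj h.ea x)
        (by have := h.h1.card_T; rw [card_cj]; omega)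
    refine x3 ⟨x1, mem_normalizer_of_cj_le (cj_le_iff'.2 fun s hs => ?_)⟩
    obtain ⟨q, q1, q2⟩ := h.exists_q
    by_cases e : s ∈ pCoreOf 2 (K' ⊔ T)
    · exact key h.symm (conj_mem_cj e)
    simpa [mul_assoc] using mul_mem (key h.symm (conj_mem_cj (h.h2.mul_mem hs (h.h1.sy.pCoreOf_le q1) e q2)))
      (inv_mem (key h (conj_mem_cj q1)))
  obtain ⟨y, y1, y2, y3⟩ : ∃ y ∈ S, y ∉ T ∧ ∀ u ∈ S, u ∉ T → u * u = 1 → y * y = 1 := by
    by_cases e : ∃ u ∈ S, u ∉ T ∧ u * u = 1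
    · obtain ⟨u, u1, u2, u3⟩ := e
      exact ⟨u, u1, u2, fun _ _ _ _ => u3⟩
    obtain ⟨u, u1, u2⟩ := SetLike.exists_of_lt h2
    exact ⟨u, u1, u2, fun u u1 u2 u3 => absurd ⟨u, u1, u2, u3⟩ e⟩
  have zT := LocalEven.omegaOneCenter_le T z1
  have y4 : y * z ∉ T := fun e => y2 ((mul_mem_cancel_right zT).1 e)
  have y5 := mul_mem y1 (h1 zT)
  have n1 : ∀ x ∈ S, x ∉ T → ∀ d ∈ wOf K ⊔ wOf K', x * d * x⁻¹ ∈ wOf K ⊔ wOf K' := fun x x1 x2 =>
    cj_le_iff'.1 (by rw [cj_sup, cj_wOf, cj_wOf, h.swapK hS h1 x1 (m3 x1) x2,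
      h.symm.swapK hS h1 x1 (m3 x1) x2, sup_comm])
  have y6 := h.mem_D_of z1 z2 z3 hS h1 y5 (m3 y5) y4 (m1 _ ⟨y5, m3 y5⟩ _ ⟨y5, m3 y5⟩ y4 y4)
    (Or.inl rfl)
  have mem := fun d => Inv.mem_sup_zpowers_iff (n1 _ y5 y4) y6 (d := d)
  refine ⟨wOf K ⊔ wOf K' ⊔ zpowers (y * z), ?_, fun u hu u1 => ((mem u).1 hu).resolve_right fun e => ?_⟩
  · have c1 := card_eq_two_mul (mem_sup_right (mem_zpowers (y * z)) : _ ∈ wOf K ⊔ wOf K' ⊔ _)
      (fun e => y4 (h.D_le e)) fun d d1 d2 => by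
        simpa [mul_assoc] using mul_mem (((mem d).1 d1).resolve_left d2) y6
    have c2 := card_eq_two_mul y1 y2 fun x x1 x2 => m1 _ ⟨x1, m3 x1⟩ _ ⟨y1, m3 y1⟩ x2 y2
    have c3 := card_mul_relIndex (sup_le (h.D_le.trans h1) (zpowers_le.2 y5))
    rw [inf_eq_left.2 le_sup_left, h.card_D] at c1
    rw [inf_eq_left.2 h1, cT] at c2
    rw [c1, c2] at c3
    omega
  have u2 := sup_le (h.D_le.trans h1) (zpowers_le.2 y5) hu
  have u3 : u ∉ T := fun e' => y4 (inv_mem_iff.1 ((mul_mem_cancel_left e').1 (h.D_le e)))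
  have yy := y3 u u2 u3 u1
  have s1 := h.mem_D_of z1 z2 z3 hS h1 y1 (m3 y1) y2 (m1 _ ⟨y1, m3 y1⟩ _ ⟨u2, m3 u2⟩ y2 u3)
    (Or.inr ⟨yy, by rw [← mul_assoc, yy, mul_inv_rev, inv_eq_of_mul_eq_one_right u1, one_mul]⟩)
  refine h.z_not_mem z1 z2 z3 ((mul_mem_cancel_left (n1 y y1 y2 _ e)).1 ?_)
  convert s1 using 1
  calc _ = y * u * (z⁻¹ * (y⁻¹ * y⁻¹) * z) := by group
    _ = _ := by rw [← mul_inv_rev, yy]; group

theorem z_not_res : z ∉ pResidual 2 G := fun e => by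
  have : Fact (Nat.Prime 2) := ⟨Nat.prime_two⟩
  obtain ⟨S, s1, s2⟩ := exists_isSylowIn_le h.h1.sy.pgrp le_top
  obtain ⟨U, u1, u2⟩ := h.exists_U z1 z2 z3 s1.pgrp s2
  obtain ⟨M, -, m1, m2⟩ := thompson_transfer (H := S) (by
    have := s1.not_dvd
    rwa [relIndex_top_right, ← even_iff_two_dvd, Nat.not_even_iff_odd] at this) u1
    (orderOf_eq_prime (mem_omegaOneCenter.1 z1).2.2 z3) fun g e =>
    h.not_conj z1 z2 z3 g (u2 _ e (by rw [conj_mul, Z_sq z1]; simp))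
  exact m2 (pResOf_le_of_pow_mem (p := 2) (H := ⊤) (fun x _ => ⟨1, sq_mem_of_index_two m1 x⟩)
    (pResOf_top (G := G) ▸ e))

end z

theorem K_le_res (h : Pair T K L K' L') : K ≤ pResidual 2 G :=
  h.h1.res.ge.trans ((pResOf_mono le_top).trans pResOf_top.le)

theorem inf_res (h : Pair T K L K' L') : pCoreOf 2 (K ⊔ T) ⊓ pResidual 2 G = wOf K := by
  refine (eq_of_le_of_card_le (le_inf h.W_le ((wOf_le_self K).trans h.K_le_res)) ?_).symm
  have c1 := h.card_Q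
  rw [h.h1.card]
  rcases (h.small.card_le h.h1.toJC).2 with e | ⟨z, z1, z2, z3⟩
  · exact (card_le_of_le inf_le_left).trans (by omega)
  rw [← h.Z_eq] at z1
  have c2 := h.card_Q_le
  have c3 := card_mul_relIndex (inf_le_left : pCoreOf 2 (K ⊔ T) ⊓ pResidual 2 G ≤ _)
  have c4 : (pCoreOf 2 (K ⊔ T) ⊓ pResidual 2 G).relIndex (pCoreOf 2 (K ⊔ T)) ≠ 1 := fun e =>
    h.z_not_res z1 z2 z3 (relIndex_eq_one.1 e (h.Z_le' z1)).2
  have c5 : 0 < Nat.card (pCoreOf 2 (K ⊔ T)) := Nat.card_pos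
  rcases e : (pCoreOf 2 (K ⊔ T) ⊓ pResidual 2 G).relIndex (pCoreOf 2 (K ⊔ T)) with _ | _ | n <;>
    rw [e] at c3 c4 <;> first | omega | nlinarith

theorem T_inf_res (h : Pair T K L K' L') : T ⊓ pResidual 2 G = wOf K ⊔ wOf K' := by
  refine (eq_of_le_of_card_le (le_inf h.D_le (sup_le ((wOf_le_self K).trans h.K_le_res)
    ((wOf_le_self K').trans h.symm.K_le_res))) ?_).symm
  have := card_le_two_mul (H := T ⊓ pResidual 2 G) fun x hx y hy x1 y1 =>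
    h.h1.mul_mem hy.1 hx.1 y1 x1
  rw [← inf_assoc, inf_eq_left.2 h.h1.sy.pCoreOf_le, h.inf_res, h.h1.card] at this
  exact h.card_D ▸ this

theorem equiv_res (h : Pair T K L K' L') :
    Nonempty (↥(L ⊓ pResidual 2 G) ≃* Equiv.Perm (Fin 4)) := by
  obtain ⟨f, hf⟩ : ∃ f : L →* Equiv.Perm (Fin 4), ∀ y, f y = 1 → ∀ x, x * y = y * x := by
    rcases h.struct with ⟨⟨e⟩, -⟩ | ⟨⟨e⟩, -⟩
    · exact ⟨e.toMonoidHom, fun y hy x => by rw [e.map_eq_one_iff.1 hy, mul_one, one_mul]⟩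
    refine ⟨(MonoidHom.fst _ _).comp e.toMonoidHom, fun y hy x => e.injective (Prod.ext ?_ ?_)⟩
    · simp [show (e y).1 = 1 from hy]
    · simp [mul_comm]
  obtain ⟨t, t1, t2, -⟩ := h.h1.exists_t
  have e1 : pCoreOf 2 K = wOf K := le_antisymm ((le_inf (h.h1.jo'.core_le h.h1.toJC le_sup_left)
    ((pCoreOf_le K).trans h.K_le_res)).trans h.inf_res.le) (wOf_le_core K)
  have e2 : L ⊓ pResidual 2 G = K ⊔ (wOf K ⊔ wOf K') := by
    rw [h.L_eq, ← h.T_inf_res, sup_comm K, sup_comm K]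
    exact inf_sup_of_le_normalizer' h.h1.tn h.K_le_res
  refine ⟨MulEquiv.ofBijective (f.comp (inclusion inf_le_left)) ((Nat.bijective_iff_injective_and_card
    _).2 ⟨(injective_iff_map_eq_one _).2 fun y hy => Subtype.ext ?_, ?_⟩)⟩
  · have key : ∀ x ∈ L, x * y = y * x := fun x hx => congrArg Subtype.val (hf _ hy ⟨x, hx⟩)
    exact h.h1.fpf t1 t2 (h.inf_res.le ⟨h.h1.jo'.cent fun x hx => key x (h.h1.le_L
      (pCoreOf_le _ hx)), y.2.2⟩) (key t (h.h1.kL t1))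
  have c1 := Core.card_sup_mul_card_inf (h.D_le.trans h.h1.tn)
  have c2 := card_mul_relIndex (pCoreOf_le (p := 2) K)
  rw [h.h1.idx, e1, h.h1.card] at c2
  rw [show K ⊓ (wOf K ⊔ wOf K') = wOf K from le_antisymm (fun x hx => e1.le (by_contra fun e =>
    h.h1.not_norm ((h.h1.gen h.h1.core_le (h.D_le hx.2) hx.1 e).trans Subgroup.le_normalizer)))
    (le_inf (wOf_le_self K) le_sup_left), h.card_D, h.h1.card, ← c2, ← e2] at c1
  rw [Nat.card_perm, Nat.card_fin, show Nat.factorial 4 = 24 from rfl]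
  omega

theorem max_res (h : Pair T K L K' L') : IsMaximalTwoLocal (L.subgroupOf (pResidual 2 G)) := by
  have : Fact (Nat.Prime 2) := ⟨Nat.prime_two⟩
  have wH := (wOf_le_self K).trans h.K_le_res
  have k0 := Subgroup.le_normalizer.trans (norm_wOf K)
  have e1 : normalizer (wOf K : Set G) = L := h.h1.max.2 _ h.h1.local_W
    (h.L_eq.le.trans (sup_le k0 (h.h1.tn.trans (norm_wOf K))))
  have e2 : ∀ R ≤ pResidual 2 G, normalizer ((R.subgroupOf (pResidual 2 G) : Subgroup _) : Set _) =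
      (normalizer (R : Set G)).subgroupOf (pResidual 2 G) := fun R hR =>
    (subgroupOf_normalizer_eq hR).symm
  refine ⟨⟨_, isPGroup_subgroupOf (ea_isPGroup (ea_wOf K)), fun e => h.h1.W_ne
    (le_bot_iff.1 ((subgroupOf_le_subgroupOf_iff wH).1 (e.le.trans bot_le))), by rw [e2 _ wH, e1]⟩, ?_⟩
  rintro _ ⟨R, r1, r2, rfl⟩ r3
  have r4 := r1.map (pResidual 2 G).subtype
  rw [← map_subtype_subgroupOf R] at r2 r3 ⊢
  have r5 := map_subtype_le R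
  generalize R.map (pResidual 2 G).subtype = R at *
  rw [e2 _ r5] at r3 ⊢
  have r6 : L ⊓ pResidual 2 G ≤ normalizer (R : Set G) := fun x hx => r3 (x := ⟨x, hx.2⟩) hx.1
  have r7 : R ≤ wOf K := by
    by_contra e
    have n1 := (le_inf ((wOf_le_self K).trans h.h1.kL) wH).trans r6
    obtain ⟨_, x1, x2, x3⟩ := exists_mem_normalizer_of_lt (isPGroup_sup (ea_isPGroup (ea_wOf K)) r4 n1)
      (left_lt_sup.2 e)
    obtain ⟨w, w1, x, x4, rfl⟩ := (mem_sup_iff_of_le_normalizer n1).1 x1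
    refine x3 (mul_mem w1 (h.inf_res.le ⟨?_, r5 x4⟩))
    rw [← h.L_eq]
    exact pCoreOf_le_of_le_normalizer inf_le_left (le_normalizer_inf Subgroup.le_normalizer
      (by rw [← pResOf_top]; exact le_top.trans (le_normalizer_pResOf ⊤))) (le_pCoreOf inf_le_right
      (le_normalizer_inf r6 Subgroup.le_normalizer) (r4.to_le inf_le_left)
      ⟨x4, e1.le ((mul_mem_cancel_left (Subgroup.le_normalizer w1)).1 x2), r5 x4⟩)
  rw [h.h1.wOf_eq h.h1.card.le r7 (fun e => r2 (by rw [e, bot_subgroupOf]))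
    ((le_inf h.h1.kL h.K_le_res).trans r6), e1]

end Pair

theorem Sit.exists_pair (h : Sit M) (hT : T ∈ maxStraddlingTwoSubgroups M) :
    ∃ K L K' L', Pair T K L K' L' := by
  obtain ⟨K, L, k1, k2, -⟩ := h.exists_half hT
  obtain ⟨K', L', k3, -⟩ := h.pair h.o2 k1 k2
  exact ⟨K, L, K', L', k3⟩

theorem ZN.se_or_pair (h : ZN G) (hO : pCore 2 G = ⊥) :
    (∃ M : Subgroup G, IsStronglyEmbedded M) ∨ ∃ T K L K' L' : Subgroup G, Pair T K L K' L' := by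
  have : Fact (Nat.Prime 2) := ⟨Nat.prime_two⟩
  obtain ⟨S, hS⟩ := exists_isSylowIn 2 (⊤ : Subgroup G)
  have h1 := local_J hS.pgrp (hS.ne_bot (by rw [card_top]; exact h.char.1.two_dvd))
  by_cases e : straddlingTwoSubgroups (normalizer (thompsonSubgroupOf 2 S : Set G)) = ∅
  · exact Or.inl ⟨_, (se_iff_st hO h1).2 e⟩
  obtain ⟨P, hP⟩ := Set.nonempty_iff_ne_empty.2 e
  obtain ⟨T, hT⟩ := exists_max_st hP
  exact Or.inr ⟨T, Sit.exists_pair ⟨h, hO, h1, S, hS, le_rfl⟩ hT⟩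

end Cfsg.Agent.PLocal
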